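import Mathlib
import Cfsg.Agent.TcData.HN.CoverFin
import Cfsg.Agent.Lib.StemSection

/-!
# The subgroup `2·HS` of the stabiliser of a point of the Harada–Norton group, with its generators

The group `⟨x, y, z⟩` of the presentation has a perfect normal subgroup of index two, containing `x` and `y`, with a
homomorphism onto the group of Higman and Sims whose kernel is central with two elements.
-/

set_option autoImplicit false
set_option Elab.async false
set_option maxRecDepth 100000
set_option linter.all false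

namespace Cfsg.Agent.TcData.HN.CoverK

open Cfsg Cfsg.Spor Cfsg.Agent.Lib.TcFacts Cfsg.Agent.Lib.TcBits Cfsg.Agent.Lib.TcPres Cfsg.Agent.Lib.TcRel
  Cfsg.Agent.Lib.TcChain Cfsg.Agent.Lib.TcAbs Cfsg.Agent.Lib.TcLevels Cfsg.Agent.Lib.TcCover Cfsg.Spor.HN
  Cfsg.Agent.TcData.HN.Cover
open scoped commutatorElement

theorem perfect_of_simple {G : Type*} [Group G] [IsSimpleGroup G] [Finite G] (h : ¬ (Nat.card G).Prime) :
    commutator G = ⊤ := by
  rcases IsSimpleGroup.eq_bot_or_eq_top_of_normal (commutator G) inferInstance with h1 | h1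
  · exfalso
    let _ : CommGroup G := { (inferInstance : Group G) with
      mul_comm := fun a b => by
        have h2 : ⁅a, b⁆ ∈ commutator G := by
          rw [commutator_def]
          exact Subgroup.commutator_mem_commutator (Subgroup.mem_top _) (Subgroup.mem_top _)
        rw [h1, Subgroup.mem_bot] at h2
        exact commutatorElement_eq_one_iff_mul_comm.1 h2 }
    exact h IsSimpleGroup.prime_card
  · exact h1

open Cfsg.Agent.S1666 Cfsg.Agent.Lib.CoConf Cfsg.Agent.Lib.RankHS in
theorem hs_perfect : commutator ↥Spor.HS = ⊤ := by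
  haveI h1 := hs_simple vS wS norm_vS norm_wS dot_vS_wS
  haveI h2 : IsSimpleGroup ↥Spor.HS := hsEquiv.isSimpleGroup
  have hc : Nat.card ↥Spor.HS = 44352000 := by
    rw [Nat.card_congr hsEquiv.toEquiv]
    exact card_hs vS wS norm_vS norm_wS dot_vS_wS
  haveI : Finite ↥Spor.HS := Nat.finite_of_card_ne_zero (by rw [hc]; norm_num)
  exact perfect_of_simple (by rw [hc]; norm_num)

section C

variable {N : Type} [Group N]

/-- The structure of the subgroup of index two. -/
theorem cover_facts (ψ : N →* Equiv.Perm ℕ) {G0 : Subgroup (Equiv.Perm ℕ)}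
    (hN : Nat.card N = 177408000)
    (hψ : ∀ g, (ψ g 100 = 100 ∧ ψ g 101 = 101) ∨ (ψ g 100 = 101 ∧ ψ g 101 = 100))
    {z0 : N} (hz0 : ψ z0 100 = 101)
    (hG0 : ∀ h ∈ G0, ∃ g, ψ g = h) (hG00 : ∀ h ∈ G0, h 100 = 100)
    (hcard : 44352000 ≤ Nat.card G0)
    {c u v : N} (hc1 : c ≠ 1) (hc2 : ψ c = 1) (hu : ψ u 100 = 100) (hv : ψ v 100 = 100) (hcuv : c = ⁅u, v⁆)
    (hZ : ∀ h ∈ G0, (∀ k ∈ G0, h * k = k * h) → h = 1)
    (hHS : Nat.card G0 = 44352000 → Spor.IsoHS G0) :
    ∃ K : Subgroup N, (∀ g, g ∈ K ↔ ψ g 100 = 100) ∧ K.Normal ∧ commutator K = ⊤ ∧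
      ∃ κ : K →* Spor.HS, Function.Surjective κ ∧ κ.ker ≤ Subgroup.center K ∧ Nat.card κ.ker = 2 := by
  classical
  have hfinN : Finite N := Nat.finite_of_card_ne_zero (by rw [hN]; norm_num)
  let K : Subgroup N := (MulAction.stabilizer (Equiv.Perm ℕ) (100 : ℕ)).comap ψ
  have hK : ∀ g, g ∈ K ↔ ψ g 100 = 100 := fun g => by
    show ψ g • (100 : ℕ) = 100 ↔ _
    rfl
  have hidx : K.index = 2 := by
    rw [Subgroup.index_eq_two_iff]
    refine ⟨z0, fun b => ?_⟩
    have e : ψ (b * z0) 100 = ψ b 101 := by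
      rw [map_mul, Equiv.Perm.mul_apply, hz0]
    rw [hK, hK, e]
    rcases hψ b with ⟨h1, h2⟩ | ⟨h1, h2⟩
    · right
      rw [h1, h2]
      simp
    · left
      rw [h1, h2]
      simp
  have hnorm : K.Normal := Subgroup.normal_of_index_eq_two hidx
  have hcardK : Nat.card K = 88704000 := by
    have := Subgroup.card_mul_index K
    rw [hidx, hN] at this
    omega
  let f : K →* Equiv.Perm ℕ := ψ.comp K.subtype
  have hfval : ∀ k : K, f k = ψ k.1 := fun k => rfl
  have hle : G0 ≤ f.range := by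
    intro h hh
    obtain ⟨g, rfl⟩ := hG0 h hh
    have : g ∈ K := (hK g).2 (hG00 _ hh)
    exact ⟨⟨g, this⟩, rfl⟩
  have hcK : c ∈ K := (hK c).2 (by rw [hc2]; rfl)
  have huK : u ∈ K := (hK u).2 hu
  have hvK : v ∈ K := (hK v).2 hv
  let cK : K := ⟨c, hcK⟩
  have hcK1 : cK ≠ 1 := fun h => hc1 (congrArg Subtype.val h)
  have hcKker : cK ∈ f.ker := by
    rw [MonoidHom.mem_ker]; exact hc2
  have hfinK : Finite K := inferInstance
  have hprod : Nat.card f.ker * Nat.card f.range = 88704000 := by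
    have h1 := Subgroup.card_mul_index f.ker
    rw [Subgroup.index_ker, hcardK] at h1
    exact h1
  have hfinR : Finite f.range := Finite.of_surjective f.rangeRestrict f.rangeRestrict_surjective
  have hr : Nat.card G0 ≤ Nat.card f.range := Subgroup.card_le_of_le hle
  have hker2 : 2 ≤ Nat.card f.ker := by
    have : Nontrivial f.ker := ⟨⟨⟨cK, hcKker⟩, 1, fun h => hcK1 (congrArg Subtype.val h)⟩⟩
    exact Finite.one_lt_card
  have hkercard : Nat.card f.ker = 2 := by
    have h2 : 44352000 ≤ Nat.card f.range := hcard.trans hr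
    have h3 : Nat.card f.ker * 44352000 ≤ 88704000 := by
      rw [← hprod]; exact Nat.mul_le_mul_left _ h2
    omega
  have hrcard : Nat.card f.range = 44352000 := by
    rw [hkercard] at hprod
    omega
  have hrange : f.range = G0 := by
    symm
    exact Subgroup.eq_of_le_of_card_ge hle (by rw [hrcard]; exact hcard)
  have hkeruniq : ∀ x : K, x ∈ f.ker → x ≠ 1 → x = cK := by
    intro x hx hx1
    have h := (Nat.card_eq_two_iff' (1 : f.ker)).1 hkercard
    obtain ⟨y, _, hy2⟩ := h
    have e1 := hy2 ⟨x, hx⟩ (fun h => hx1 (congrArg Subtype.val h))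
    have e2 := hy2 ⟨cK, hcKker⟩ (fun h => hcK1 (congrArg Subtype.val h))
    exact congrArg Subtype.val (e1.trans e2.symm)
  have hcenter : f.ker ≤ Subgroup.center K := by
    intro x hx
    by_cases hx1 : x = 1
    · rw [hx1]; exact Subgroup.one_mem _
    rw [Subgroup.mem_center_iff]
    intro y
    have h1 : y * x * y⁻¹ ∈ f.ker := (f.normal_ker).conj_mem x hx y
    have h2 : y * x * y⁻¹ ≠ 1 := by
      intro h
      apply hx1
      have := congrArg (fun t => y⁻¹ * t * y) h
      simpa [mul_assoc] using this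
    have h3 := hkeruniq _ h1 h2
    have h4 := hkeruniq x hx hx1
    have h5 : y * x * y⁻¹ = x := h3.trans h4.symm
    have := congrArg (fun t => t * y) h5
    simpa [mul_assoc] using this
  obtain ⟨E⟩ := hHS (by rw [← hrange]; exact hrcard)
  let E' : f.range ≃* Spor.HS := (MulEquiv.subgroupCongr hrange).trans E
  let κ : K →* Spor.HS := E'.toMonoidHom.comp f.rangeRestrict
  have hκs : Function.Surjective κ := E'.surjective.comp f.rangeRestrict_surjective
  have hκker : κ.ker = f.ker := by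
    ext a
    rw [MonoidHom.mem_ker, MonoidHom.mem_ker]
    constructor
    · intro h
      have h2 : f.rangeRestrict a = 1 := E'.injective (h.trans (map_one E').symm)
      exact congrArg Subtype.val h2
    · intro h
      have h2 : f.rangeRestrict a = 1 := Subtype.ext h
      show E' (f.rangeRestrict a) = 1
      rw [h2, map_one]
  have hperf : commutator K = ⊤ := by
    rw [eq_top_iff]
    rintro a -
    have h1 : κ a ∈ (commutator K).map κ := by
      rw [Cfsg.Agent.Lib.StemSection.map_commutator_top κ hκs hs_perfect]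
      trivial
    obtain ⟨q, hq, e⟩ := h1
    have hcc : cK ∈ commutator K := by
      have : cK = ⁅(⟨u, huK⟩ : K), (⟨v, hvK⟩ : K)⁆ := by
        apply Subtype.ext
        show c = _
        rw [hcuv]
        rfl
      rw [this, commutator_def]
      exact Subgroup.commutator_mem_commutator (Subgroup.mem_top _) (Subgroup.mem_top _)
    have h2 : q⁻¹ * a ∈ f.ker := by
      rw [← hκker, MonoidHom.mem_ker, map_mul, map_inv, e, inv_mul_cancel]
    have h3 : q⁻¹ * a ∈ commutator K := by
      by_cases h4 : q⁻¹ * a = 1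
      · rw [h4]; exact Subgroup.one_mem _
      · rw [hkeruniq _ h2 h4]; exact hcc
    have := Subgroup.mul_mem _ hq h3
    simpa using this
  exact ⟨K, hK, hnorm, hperf, κ, hκs, hκker ▸ hcenter, hκker ▸ hkercard⟩

end C

/-- The isomorphism of the two descriptions of the subgroup, on words. -/
theorem exists_e2 : ∃ e : A ≃* ↥Cfsg.Agent.TcData.HN.I1539000.HH,
    ∀ a : A, (e a).1 = piOf Cfsg.Agent.TcData.HN.I1539000.hRHRR a.1 := by
  have hBm : B = A.map (piOf Cfsg.Agent.TcData.HN.I1539000.hRHRR) :=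
    (map_subOf Cfsg.Agent.TcData.HN.I1539000.hRHRR T).symm
  have hmem : ∀ k : A, piOf Cfsg.Agent.TcData.HN.I1539000.hRHRR k.1 ∈ B := fun k => by
    rw [hBm]
    exact Subgroup.mem_map_of_mem _ k.2
  let f : A →* B := ((piOf Cfsg.Agent.TcData.HN.I1539000.hRHRR).comp A.subtype).codRestrict B hmem
  have hf : Function.Surjective f := by
    rintro ⟨y, hy⟩
    have hy2 := hy
    rw [hBm] at hy2
    obtain ⟨k, hk, rfl⟩ := hy2
    exact ⟨⟨k, hk⟩, rfl⟩
  have hfi : Function.Injective f := by
    intro a b hab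
    have h1 : piOf Cfsg.Agent.TcData.HN.I1539000.hRHRR a.1 = piOf Cfsg.Agent.TcData.HN.I1539000.hRHRR b.1 :=
      congrArg Subtype.val hab
    exact Subtype.ext (Cfsg.Agent.TcData.HN.Cmp.hInj a.2 b.2 (congrArg Cfsg.Agent.TcData.HN.I1539000.Phi h1))
  have hB : B = Cfsg.Agent.TcData.HN.I1539000.HH := hHH.symm
  refine ⟨(MulEquiv.ofBijective f ⟨hfi, hf⟩).trans (MulEquiv.subgroupCongr hB), fun a => rfl⟩

theorem hyA : PresentedGroup.mk RH y ∈ A := mem_A (by decide +kernel)

open Cfsg.Agent.TcData.HNH.ChW in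
/-- The subgroup of index two with its generators. -/
theorem main_K : ∃ K : Subgroup ↥Cfsg.Agent.TcData.HN.I1539000.HH, K.Normal ∧ commutator K = ⊤ ∧
    (∃ κ : K →* Spor.HS, Function.Surjective κ ∧ κ.ker ≤ Subgroup.center K ∧ Nat.card κ.ker = 2) ∧
    ∃ xK yK : K, xK.1.1 = PresentedGroup.mk RG x ∧ yK.1.1 = PresentedGroup.mk RG y := by
  obtain ⟨e, he⟩ := exists_e2
  let ψ : ↥Cfsg.Agent.TcData.HN.I1539000.HH →* Equiv.Perm ℕ := (PW.comp A.subtype).comp e.symm.toMonoidHom
  have hψe : ∀ a : A, ψ (e a) = PW a.1 := by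
    intro a
    show PW (e.symm (e a)).1 = _
    rw [e.symm_apply_apply]
  have hN : Nat.card ↥Cfsg.Agent.TcData.HN.I1539000.HH = 177408000 := by
    rw [← Nat.card_congr e.toEquiv]
    exact Cfsg.Agent.TcData.HNH.Fin.main.1
  have hsurj : ∀ g : ↥Cfsg.Agent.TcData.HN.I1539000.HH, ∃ a : A, e a = g := fun g => ⟨e.symm g, e.apply_symm_apply g⟩
  let zA : A := ⟨_, hzA⟩
  let cA : A := ⟨_, hcA⟩
  let uA : A := ⟨_, hxA⟩
  let vA : A := ⟨_, hvA⟩
  let yA : A := ⟨_, hyA⟩
  have hcuv : cA = ⁅uA, vA⁆ := by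
    apply Subtype.ext
    have h := hrW
    simp only [rW, map_mul, map_inv] at h
    rw [mul_inv_eq_one] at h
    simp only [cW, map_mul] at h ⊢
    show _ = PresentedGroup.mk RH x * PresentedGroup.mk RH vW * (PresentedGroup.mk RH x)⁻¹ * (PresentedGroup.mk RH vW)⁻¹
    exact h.symm
  obtain ⟨K, hK, hnorm, hperf, hκ⟩ := cover_facts ψ (G0 := Gp pL S1) hN
    (by
      intro g
      obtain ⟨a, rfl⟩ := hsurj g
      rw [hψe]
      exact hApair a.2)
    (z0 := e zA) (by rw [hψe]; exact hz100)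
    (by
      intro h hh
      have h2 : h ∈ A.map PW := hK' (hG1le hh)
      obtain ⟨a, ha, rfl⟩ := h2
      exact ⟨e ⟨a, ha⟩, hψe ⟨a, ha⟩⟩)
    (by
      intro h hh
      exact hG0fix hh 100 le_rfl)
    (cards h0).1 (c := e cA) (u := e uA) (v := e vA)
    (by
      intro h
      exact hc1 (congrArg Subtype.val (e.injective (h.trans (map_one e).symm))))
    (by rw [hψe]; exact hc2) (by rw [hψe]; exact hx100) (by rw [hψe]; exact hv100)
    (by rw [hcuv, map_commutatorElement]) hZ (hHS h0)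
  refine ⟨K, hnorm, hperf, hκ, ⟨e uA, (hK _).2 (by rw [hψe]; exact hx100)⟩,
    ⟨e yA, (hK _).2 (by rw [hψe]; exact hy100)⟩, ?_, ?_⟩
  · show (e uA).1 = _
    rw [he]
    exact piOf_mk _ _
  · show (e yA).1 = _
    rw [he]
    exact piOf_mk _ _

end Cfsg.Agent.TcData.HN.CoverK
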