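import Mathlib
import Cfsg.Agent.TcData.HN.CoverK
import Cfsg.Agent.Lib.SchurBasic

/-!
# Central extensions of the Harada–Norton group

A stem extension of the group of the presentation is an isomorphism, as soon as the stem extensions of the
group of Higman and Sims have kernels with at most two elements.
-/

set_option autoImplicit false
set_option Elab.async false
set_option maxRecDepth 100000
set_option linter.all false

namespace Cfsg.Agent.TcData.HN.Mult

open Cfsg Cfsg.Spor Cfsg.Spor.HN Cfsg.Agent.Lib.StemSection Cfsg.Agent.TcData.HN.CoverK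
open Cfsg.Agent.TcData.HN.Cover (RG)
open scoped commutatorElement

/-- The image of a word. -/
noncomputable abbrev m : FreeGroup Gen →* PresentedGroup RG := PresentedGroup.mk RG

theorem m_rel {r : FreeGroup Gen} (hr : r ∈ extra) : m r = 1 :=
  PresentedGroup.one_of_mem (Or.inr hr)

theorem r_y6 : m y ^ 6 = 1 := by
  have := m_rel (r := y ^ 6) (by simp [extra])
  simpa using this

theorem r_z2 : m z ^ 2 = 1 := by
  have := m_rel (r := z ^ 2) (by simp [extra])
  simpa using this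

theorem r_zx : (m z * m x) ^ 2 = 1 := by
  have := m_rel (r := (z * x) ^ 2) (by simp [extra])
  simpa using this

/-- The fourth power of `x`. -/
theorem r_x4 : m x ^ 4 = 1 := by
  have h : PresentedGroup.mk Cfsg.Agent.TcData.HN.Cover.RH (x * x * x * x) = 1 :=
    Cfsg.Agent.Lib.TcLevels.mk_eq_one_of_slices Cfsg.Agent.TcData.HNH.V.hR Cfsg.Agent.TcData.HNH.V.hv
      Cfsg.Agent.TcData.HNH.Fin.main.2 (by decide +kernel) (by decide +kernel)
  have h2 := congrArg (Cfsg.Agent.Lib.TcAbs.piOf Cfsg.Agent.TcData.HN.I1539000.hRHRR) h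
  rw [Cfsg.Agent.Lib.TcAbs.piOf_mk, map_one] at h2
  simpa [pow_succ, mul_assoc] using h2

theorem r_t5 : m t ^ 5 = 1 := by
  have := m_rel (r := t ^ 5) (by simp [extra])
  simpa using this

theorem r_xt : (m x)⁻¹ * m t * m x * m t ^ 2 = 1 := by
  have := m_rel (r := (x⁻¹ * t * x) * (t ^ 2)) (by simp [extra])
  simpa using this

theorem r_ty : (m t)⁻¹ * (m y)⁻¹ * m t * m y = 1 := by
  have := m_rel (r := t⁻¹ * y⁻¹ * t * y) (by simp [extra])
  simpa using this

theorem r_zt : (m z * m t) ^ 3 = 1 := by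
  have := m_rel (r := (z * t) ^ 3) (by simp [extra])
  simpa using this

/-- Conjugation of `x` by `z`. -/
theorem r_zxz : m z * m x * (m z)⁻¹ = (m x)⁻¹ := by
  have h1 : (m z)⁻¹ = m z := by
    rw [inv_eq_iff_mul_eq_one, ← pow_two]; exact r_z2
  rw [h1]
  have h2 : m z * m x * m z * m x = 1 := by
    have := r_zx
    rw [pow_two] at this
    simpa [mul_assoc] using this
  exact eq_inv_of_mul_eq_one_left h2

theorem r_zxxz : m z * (m x * m x) * (m z)⁻¹ = m x * m x := by
  have h1 : m z * (m x * m x) * (m z)⁻¹ = (m z * m x * (m z)⁻¹) * (m z * m x * (m z)⁻¹) := by group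
  rw [h1, r_zxz]
  have h2 : m x * m x * (m x * m x) = 1 := by
    have := r_x4
    simpa [pow_succ, mul_assoc] using this
  have h3 : m x * m x = (m x * m x)⁻¹ := eq_inv_of_mul_eq_one_left h2
  rw [h3]
  simp

/-- A computation for the relator with a cube. -/
theorem cube_identity {Q : Type*} [Group Q] (a v : Q) (h : a ^ 2 = 1) :
    a * (a * v) ^ 3 = v * (a * v * a⁻¹) * v := by
  have h1 : a⁻¹ = a := by
    rw [inv_eq_iff_mul_eq_one, ← pow_two]; exact h
  have h2 : a * a = 1 := by rw [← pow_two]; exact h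
  rw [h1]
  calc a * (a * v) ^ 3 = (a * a) * v * a * v * a * v := by
        simp only [pow_succ, pow_zero, one_mul, mul_assoc]
    _ = v * (a * v * a) * v := by rw [h2]; simp only [one_mul, mul_assoc]

/-- The main computation. -/
theorem ker_bot_of_bound
    (hbound : ∀ (Γ : Type) [Group Γ] [Finite Γ] (τ : Γ →* ↥Spor.HS), Cfsg.IsStemExtension τ → Nat.card τ.ker ≤ 2)
    (Γ : Type) [Group Γ] [Finite Γ] (σ : Γ →* PresentedGroup RG) (hσ : Cfsg.IsStemExtension σ) : σ.ker = ⊥ := by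
  classical
  obtain ⟨K, hKn, hperf, ⟨κ, hκ, hκc, hκ2⟩, xK, yK, hxK, hyK⟩ := main_K
  let HH := Cfsg.Agent.TcData.HN.I1539000.HH
  let ι : K →* PresentedGroup RG := HH.subtype.comp K.subtype
  have hι : Function.Injective ι := Subtype.val_injective.comp Subtype.val_injective
  obtain ⟨s, hs⟩ := exists_section_of_inj σ hσ.1 hσ.2.1 ι hι hperf κ hκ hκc
    (fun Γ' _ _ τ hτ => by rw [hκ2]; exact hbound Γ' τ hτ)
  have hA : σ.ker ≤ Subgroup.center Γ := hσ.2.1
  have hιx : ι xK = m x := hxK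
  have hιy : ι yK = m y := hyK
  have hzH : m z ∈ HH := Subgroup.mem_map_of_mem _ (Subgroup.subset_closure (by simp))
  -- the normaliser
  have hNorm : ∀ g : Γ, σ g ∈ HH → ∀ k, ∃ k', ι k' = σ g * ι k * (σ g)⁻¹ := by
    intro g hg k
    exact ⟨⟨(⟨σ g, hg⟩ : HH) * k.1 * (⟨σ g, hg⟩ : HH)⁻¹, hKn.conj_mem k.1 k.2 _⟩, rfl⟩
  let X := s xK
  let Y := s yK
  have hX : σ X = m x := by rw [hs]; exact hιx
  have hY : σ Y = m y := by rw [hs]; exact hιy
  obtain ⟨Z0, hZ0⟩ := hσ.1 (m z)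
  obtain ⟨T0, hT0⟩ := hσ.1 (m t)
  have hY6 : Y ^ 6 = 1 := by
    have h1 : yK ^ 6 = 1 := hι (by rw [map_pow, hιy, r_y6, map_one])
    show s yK ^ 6 = 1
    rw [← map_pow, h1, map_one]
  obtain ⟨g, hg, ht5, htx, hty⟩ := t_part σ.ker hA X Y T0
    (by rw [MonoidHom.mem_ker, map_pow, hT0, r_t5])
    (by rw [MonoidHom.mem_ker]; simp only [map_mul, map_inv, map_pow, hT0, hX]; exact r_xt)
    (by rw [MonoidHom.mem_ker]; simp only [map_mul, map_inv, hT0, hY]; exact r_ty) hY6
  set S := T0 * g with hS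
  have hσS : σ S = m t := by
    rw [hS, map_mul, hT0, MonoidHom.mem_ker.1 hg, mul_one]
  -- the action of the square of `x`
  have hCZ : Z0 * (X * X) = (X * X) * Z0 := by
    have h1 := section_conj σ hA ι hι hperf s hs Z0 (hNorm Z0 (by rw [hZ0]; exact hzH))
      (k := xK * xK) (k' := xK * xK) (by
        rw [map_mul, hιx, hZ0]; exact r_zxxz.symm)
    rw [map_mul] at h1
    exact mul_inv_eq_iff_eq_mul.1 h1
  have hCS : (X * X)⁻¹ * S * (X * X) = S⁻¹ := by
    have h1 : X⁻¹ * S * X = (S ^ 2)⁻¹ := eq_inv_of_mul_eq_one_left htx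
    have h2 : X⁻¹ * (S ^ 2)⁻¹ * X = S ^ 4 := by
      have e : X⁻¹ * (S ^ 2)⁻¹ * X = ((X⁻¹ * S * X) ^ 2)⁻¹ := by
        simp only [pow_two, mul_inv_rev, inv_inv]; group
      rw [e, h1, inv_pow, inv_inv, ← pow_mul]
    have h3 : S ^ 4 = S⁻¹ := by
      rw [eq_inv_iff_mul_eq_one, ← pow_succ]; exact ht5
    calc (X * X)⁻¹ * S * (X * X) = X⁻¹ * (X⁻¹ * S * X) * X := by group
      _ = X⁻¹ * (S ^ 2)⁻¹ * X := by rw [h1]
      _ = S⁻¹ := by rw [h2, h3]
  obtain ⟨w, hw, hz2, hz3⟩ := z_part σ.ker hA Z0 S (X * X)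
    (by rw [MonoidHom.mem_ker, map_pow, hZ0, r_z2])
    (by rw [MonoidHom.mem_ker, map_pow, map_mul, hZ0, hσS, r_zt]) hCZ hCS
  set ζ := Z0 * w with hζ
  have hσζ : σ ζ = m z := by
    rw [hζ, map_mul, hZ0, MonoidHom.mem_ker.1 hw, mul_one]
  -- the homomorphism
  let f : Gen → Γ := fun a => match a with
    | Gen.x => X
    | Gen.y => Y
    | Gen.z => ζ
    | Gen.t => S
  let L : FreeGroup Gen →* Γ := FreeGroup.lift f
  have hLx : L x = X := FreeGroup.lift_apply_of
  have hLy : L y = Y := FreeGroup.lift_apply_of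
  have hLz : L z = ζ := FreeGroup.lift_apply_of
  have hLt : L t = S := FreeGroup.lift_apply_of
  let N' : Subgroup (FreeGroup Gen) :=
    { carrier := {r | ∃ k : K, ι k = m r ∧ L r = s k}
      one_mem' := ⟨1, by simp, by simp⟩
      mul_mem' := by
        rintro a b ⟨k, h1, h2⟩ ⟨l, h3, h4⟩
        exact ⟨k * l, by rw [map_mul, h1, h3, map_mul], by rw [map_mul, h2, h4, map_mul]⟩
      inv_mem' := by
        rintro a ⟨k, h1, h2⟩
        exact ⟨k⁻¹, by rw [map_inv, h1, map_inv], by rw [map_inv, h2, map_inv]⟩ }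
  have hxN : x ∈ N' := ⟨xK, hιx, hLx⟩
  have hyN : y ∈ N' := ⟨yK, hιy, hLy⟩
  have hζH : σ ζ ∈ HH := by rw [hσζ]; exact hzH
  have hconj : ∀ r ∈ N', z * r * z⁻¹ ∈ N' := by
    rintro r ⟨k, h1, h2⟩
    obtain ⟨k', hk'⟩ := hNorm ζ hζH k
    refine ⟨k', ?_, ?_⟩
    · rw [hk', h1, hσζ, map_mul, map_mul, map_inv]
    · rw [map_mul, map_mul, map_inv, hLz, h2]
      exact section_conj σ hA ι hι hperf s hs ζ (hNorm ζ hζH) hk'
  have hconj' : ∀ r ∈ N', z⁻¹ * r * z ∈ N' := by
    rintro r ⟨k, h1, h2⟩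
    have hζH' : σ ζ⁻¹ ∈ HH := by rw [map_inv]; exact HH.inv_mem hζH
    obtain ⟨k', hk'⟩ := hNorm ζ⁻¹ hζH' k
    refine ⟨k', ?_, ?_⟩
    · rw [hk', h1, map_inv, hσζ, map_mul, map_mul, map_inv, inv_inv]
    · have := section_conj σ hA ι hι hperf s hs ζ⁻¹ (hNorm ζ⁻¹ hζH') hk'
      rw [inv_inv] at this
      rw [map_mul, map_mul, map_inv, hLz, h2]
      exact this
  have hN1 : ∀ r ∈ N', m r = 1 → L r = 1 := by
    rintro r ⟨k, h1, h2⟩ h3
    have : k = 1 := hι (by rw [h1, h3, map_one])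
    rw [h2, this, map_one]
  have hζi : ζ⁻¹ = ζ := by
    rw [inv_eq_iff_mul_eq_one, ← pow_two]; exact hz2
  have hL : ∀ r ∈ RG, L r = 1 := by
    rintro r (⟨a, ha, _⟩ | hr)
    · simp [coxNodes, edges] at ha
    · have hm : m r = 1 := m_rel hr
      have hr' : r ∈ extra := hr
      simp only [extra, List.mem_cons, List.not_mem_nil, or_false] at hr'
      rcases hr' with rfl | rfl | rfl | rfl | rfl | rfl | rfl | rfl | rfl | rfl | rfl | rfl | rfl | rfl
      · exact hN1 _ (N'.pow_mem hyN 6) hm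
      · exact hN1 _ (N'.mul_mem (N'.mul_mem (N'.mul_mem (N'.pow_mem hxN 2) hyN) (N'.pow_mem hxN 2)) (N'.inv_mem hyN)) hm
      · exact hN1 _ (N'.pow_mem (N'.mul_mem (N'.mul_mem (N'.mul_mem (N'.inv_mem hxN) (N'.inv_mem hyN)) hxN) hyN) 3) hm
      · exact hN1 _ (N'.pow_mem (N'.mul_mem (N'.mul_mem (N'.mul_mem (N'.inv_mem hxN) (N'.pow_mem hyN 2)) hxN) (N'.pow_mem hyN 3)) 3) hm
      · exact hN1 _ (N'.pow_mem (N'.mul_mem hxN hyN) 8) hm
      · exact hN1 _ (N'.pow_mem (N'.mul_mem (N'.mul_mem (N'.mul_mem hxN hyN) hxN) (N'.pow_mem hyN 3)) 4) hm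
      · rw [map_pow, hLz]; exact hz2
      · -- `(z x) ^ 2`
        have h1 : z * x * z⁻¹ * x ∈ N' := N'.mul_mem (hconj x hxN) hxN
        have h2 : m (z * x * z⁻¹ * x) = 1 := by
          rw [map_mul, map_mul, map_mul, map_inv, r_zxz, inv_mul_cancel]
        have h3 := hN1 _ h1 h2
        rw [map_mul, map_mul, map_mul, map_inv, hLz, hLx, hζi] at h3
        rw [map_pow, map_mul, hLz, hLx, pow_two]
        simpa [mul_assoc] using h3
      · -- the commutator
        have hW : (y * x * y * x * (y ^ 2) * x * (y⁻¹)) ∈ N' :=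
          N'.mul_mem (N'.mul_mem (N'.mul_mem (N'.mul_mem (N'.mul_mem (N'.mul_mem hyN hxN) hyN) hxN) (N'.pow_mem hyN 2)) hxN) (N'.inv_mem hyN)
        exact hN1 _ (N'.mul_mem (N'.mul_mem (hconj' _ (N'.inv_mem hW)) hW) (N'.inv_mem (N'.pow_mem hxN 2))) hm
      · -- the cube
        have hB : ((y ^ 3) * x * y * x * y) ∈ N' :=
          N'.mul_mem (N'.mul_mem (N'.mul_mem (N'.mul_mem (N'.pow_mem hyN 3) hxN) hyN) hxN) hyN
        set B := (y ^ 3) * x * y * x * y with hBdef
        have hv : z⁻¹ * B⁻¹ * z * B * x ∈ N' :=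
          N'.mul_mem (N'.mul_mem (hconj' _ (N'.inv_mem hB)) hB) hxN
        set v := z⁻¹ * B⁻¹ * z * B * x with hvdef
        have e : ((B⁻¹ * z * B) * x) = z * v := by rw [hvdef]; group
        rw [e] at hm ⊢
        have h1 : v * (z * v * z⁻¹) * v ∈ N' := N'.mul_mem (N'.mul_mem hv (hconj v hv)) hv
        have h2 : m (v * (z * v * z⁻¹) * v) = 1 := by
          have := cube_identity (m z) (m v) r_z2
          simp only [map_mul, map_pow, map_inv] at hm ⊢
          rw [← this]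
          exact hm
        have h3 := hN1 _ h1 h2
        simp only [map_mul, map_inv, hLz] at h3
        simp only [map_mul, map_pow, hLz]
        rw [cube_identity ζ (L v) hz2]
        exact h3
      · rw [map_pow, hLt]; exact ht5
      · simp only [map_mul, map_inv, map_pow, hLx, hLt]
        exact htx
      · simp only [map_mul, map_inv, hLy, hLt]
        exact hty
      · rw [map_pow, map_mul, hLz, hLt]; exact hz3
  let lam : PresentedGroup RG →* Γ := PresentedGroup.toGroup hL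
  have hlam : (σ.comp lam) = MonoidHom.id _ := by
    apply PresentedGroup.ext
    intro a
    cases a
    · show σ (lam (PresentedGroup.of Gen.x)) = _
      rw [PresentedGroup.toGroup.of]
      exact hX
    · show σ (lam (PresentedGroup.of Gen.y)) = _
      rw [PresentedGroup.toGroup.of]
      exact hY
    · show σ (lam (PresentedGroup.of Gen.z)) = _
      rw [PresentedGroup.toGroup.of]
      exact hσζ
    · show σ (lam (PresentedGroup.of Gen.t)) = _
      rw [PresentedGroup.toGroup.of]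
      exact hσS
  exact ker_bot_of_section σ hσ lam (fun g => DFunLike.congr_fun hlam g)

end Cfsg.Agent.TcData.HN.Mult
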